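import Cfsg.Agent.Mult.Fam

set_option autoImplicit false
set_option Elab.async false
set_option maxRecDepth 100000
set_option linter.all false

namespace Cfsg.Agent.L34C
open Cfsg.Agent.CGT

open Cfsg.Agent.Mult

noncomputable def ix : Ix (Fin 3) := ⟨Fin.val, 3, by decide, by decide, by decide⟩
noncomputable def Es : List (Fin 3 × ℕ) := [(0, 1), (0, 2), (0, 3), (1, 1), (1, 2), (1, 3), (2, 1), (2, 2), (2, 3)]
noncomputable def Bs : List Pl := [[(5, 0), (0xa, 0), (4, 0), (8, 0), (0x10, 0), (0x20, 0)],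
  [(9, 0), (0xe, 0), (4, 0), (8, 0), (0x10, 0), (0x20, 0)],
  [(0xd, 0), (6, 0), (4, 0), (8, 0), (0x10, 0), (0x20, 0)],
  [(1, 0), (2, 0), (0x14, 0), (0x28, 0), (0x10, 0), (0x20, 0)],
  [(1, 0), (2, 0), (0x24, 0), (0x38, 0), (0x10, 0), (0x20, 0)],
  [(1, 0), (2, 0), (0x34, 0), (0x18, 0), (0x10, 0), (0x20, 0)],
  [(1, 0), (2, 0), (4, 0), (8, 0), (0x11, 0), (0x22, 0)],
  [(1, 0), (2, 0), (4, 0), (8, 0), (0x12, 0), (0x23, 0)],
  [(1, 0), (2, 0), (4, 0), (8, 0), (0x13, 0), (0x21, 0)]]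

end Cfsg.Agent.L34C
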