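import Cfsg.Agent.Mult.Slices
import Cfsg.Agent.L34C.Base
import Cfsg.Agent.L34C.Tabs
import Cfsg.Agent.L34C.Pres

set_option autoImplicit false
set_option Elab.async false
set_option maxRecDepth 100000
set_option linter.all false

namespace Cfsg.Agent.L34C
open Cfsg.Agent.CGT

open Cfsg.Agent.Mult

noncomputable def Ws : List (List ℕ) := [[2, 6, 4, 6, 2], [6, 5, 1, 5, 1, 6], [6], [4, 7, 4], [6, 1, 7, 3, 2, 3, 6, 5, 2, 5]]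
noncomputable def Us : List (List ℕ) := [[8, 4, 0, 2, 0, 4, 9], [6, 2, 0, 9, 6, 0, 2], [4, 0, 2, 0, 4], [8, 2, 6, 8, 4, 2], [0, 4, 2, 4, 0], [2, 6, 8, 4, 2, 8], [4], [8, 4, 9], [9, 4, 8]]
noncomputable def Rs : List Pl := [[(0x1c, 0), (0x24, 0), (0x22, 0), (0x33, 0), (0x10, 0), (0x20, 0)],
  [(0x1c, 0), (0x24, 0), (0x22, 0), (0x33, 0), (0x10, 0), (0x20, 0)],
  [(0x10, 0), (0x20, 0), (4, 0), (8, 0), (1, 0), (2, 0)],
  [(0x10, 0), (0x20, 0), (4, 0), (8, 0), (1, 0), (2, 0)],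
  [(1, 0), (2, 0), (4, 0), (8, 0), (0x11, 0), (0x22, 0)],
  [(1, 0), (2, 0), (4, 0), (8, 0), (0x11, 0), (0x22, 0)],
  [(1, 0), (2, 0), (7, 0), (9, 0), (0x12, 0), (0x23, 0)],
  [(1, 0), (2, 0), (7, 0), (9, 0), (0x12, 0), (0x23, 0)],
  [(2, 0), (3, 0), (4, 0), (8, 0), (0x30, 0), (0x10, 0)],
  [(3, 0), (1, 0), (4, 0), (8, 0), (0x20, 0), (0x30, 0)]]
noncomputable def Ts0 : List (K4 × Pl) := [(⟨1, 0⟩, [(1, 0), (2, 0), (4, 0), (8, 0), (0x10, 0), (0x20, 0)]),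
  (⟨0, 1⟩, [(2, 0), (3, 0), (8, 0), (0xc, 0), (0x20, 0), (0x30, 0)]),
  (⟨1, 1⟩, [(3, 0), (1, 0), (0xc, 0), (4, 0), (0x30, 0), (0x10, 0)])]
noncomputable def Ts : List Pl := Ts0.map Prod.snd
noncomputable def Ps : Pl := [(0x1fffe0, 0), (0, 0), (0x1fe01e, 0), (0x1e1e00, 0), (0x199999, 0), (0x155554, 0)]

end Cfsg.Agent.L34C
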