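import Cfsg.Agent.Mult.Slices
import Cfsg.Agent.L34C.CertT0
import Cfsg.Agent.L34C.CertT1

set_option autoImplicit false
set_option Elab.async false
set_option maxRecDepth 100000
set_option linter.all false

namespace Cfsg.Agent.L34C
open Cfsg.Agent.CGT

open Cfsg.Agent.Mult

noncomputable def c_l0 : Level := ⟨1, [[0], [2], [4], [6], [8]], [0, 1, 0, 2, 3, 4, 0, 4], 0x1fffff, 21⟩
noncomputable def c_l1 : Level := ⟨0, [[2], [4], [6], [8]], [0, 1, 2, 3, 1, 2, 0], 0x1ffffd, 20⟩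
noncomputable def c_l2 : Level := ⟨5, [[4], [6], [8]], [0, 1, 2, 0, 1], 0x1fffe0, 16⟩
noncomputable def c_l3 : Level := ⟨2, [[8]], [0, 0], 0x1c, 3⟩
noncomputable def c_ls : List Level := [c_l0, c_l1, c_l2, c_l3]
theorem c_l0_ok : (ptsOK 5 [] && (wordsIn [0, 2, 4, 6, 8] c_l0.S && c_l0.ok 5 m_ns m_ts [])) = true := by decide +kernel
theorem c_l1_ok : (ptsOK 5 [1] && (wordsIn [0, 2, 4, 6, 8] c_l1.S && c_l1.ok 5 m_ns m_ts [1])) = true := by decide +kernel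
theorem c_l2_ok : (ptsOK 5 [0, 1] && (wordsIn [0, 2, 4, 6, 8] c_l2.S && c_l2.ok 5 m_ns m_ts [0, 1])) = true := by decide +kernel
theorem c_l3_ok : (ptsOK 5 [5, 0, 1] && (wordsIn [0, 2, 4, 6, 8] c_l3.S && c_l3.ok 5 m_ns m_ts [5, 0, 1])) = true := by decide +kernel
theorem c_sound {G : Type*} [Group G] {φ : G →* Equiv.Perm ℕ} {γ : ℕ → G}
    (M : Model φ γ 5 m_ns m_ts) : ChainSound φ (gp γ [0, 2, 4, 6, 8]) 5 [] c_ls :=
  ⟨Level.ok_sound' M c_l0_ok,
   Level.ok_sound' M c_l1_ok,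
   Level.ok_sound' M c_l2_ok,
   Level.ok_sound' M c_l3_ok, trivial⟩
theorem cert {F : Type*} [Field F] [Fintype F] (hF : Fintype.card F = 4) (ψ : K4 ≃+* F) :
    ∃ (γ : ℕ → Matrix.ProjectiveSpecialLinearGroup (Fin 3) F) (φ : _), CGT.Cert φ γ 5 m_ns m_ts [0, 2, 4, 6, 8] c_ls ∧ Holds (ext γ) qRR :=
  Co.Base.cert (C := stdCo kf4 ix ψ.toRingHom) (sl_base (n := 2) (Es := Es) ψ (by decide) (by decide +kernel) rfl (show ∀ a < Bs.length, kf4.Chk ix (fun x y => (1 + Matrix.single (nth (0, 0) Es a).1 ((nth (0, 0) Es a).1 + 1) (kf4.nm (nth (0, 0) Es a).2) : Matrix _ _ K4) x y) (nth [] Bs a) by decide +kernel)) h_der h_gen (scal_std h_sc) h_len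
    (uniq_lead h_len h_red h_lead) m_v h_fix (by decide +kernel)
    (fun j hj => by
    change j < 5 at hj
    interval_cases j
    exacts [h_a0, h_a1, h_a2, h_a3, h_a4]) m_ts_ok (fun _ _ M => c_sound M) (allL_iff.1 h_r0) (fun _ h => qbd0 h) (by decide +kernel)

end Cfsg.Agent.L34C
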