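import Cfsg.Agent.Mult.Slices
import Cfsg.Agent.L34C.Tabs

set_option autoImplicit false
set_option Elab.async false
set_option maxRecDepth 100000
set_option linter.all false

namespace Cfsg.Agent.L34C
open Cfsg.Agent.CGT

open Cfsg.Agent.Mult

noncomputable def u2_D : PC := ⟨2, 6, 2, 29,
  [[0, 0x104, 0x10, 0x440, 0x100, 0x400], [0, 0x400, 0x410, 0x140, 0x100, 0x400], [0, 0, 0, 0x540, 0x100, 0x400], [0, 0, 0, 0x500, 0x100, 0x400], [0, 0, 0, 0, 0, 0x400], [0, 0, 0, 0, 0, 0]],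
  [0x33, 0xf, 3, 0, 0, 0],
  [(6, 1, 0x500), (6, 0x10, 0x100), (6, 0x400, 0x111), (7, 0x50, 0x14), (7, 0x100, 0x150), (7, 0x400, 0x44)], 13, 0x300000105020400000000⟩
noncomputable def u2_ds : List (List ℕ) := [[8, 6, 9], [9, 4, 2, 6, 2, 0, 6, 8], [9, 6, 4, 8], [8, 6, 0, 8, 4, 8, 6], [0, 2, 0, 9, 6, 0, 2, 6, 0], [8, 6, 0, 6, 0, 9], [6, 0, 4, 2, 0, 9, 4, 0], [9, 4, 9, 6, 2, 4, 8]]
noncomputable def u2_c : Mult.Cert := ⟨18, 23, [[], [], [], [], [1], [3]],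
  [([1, 9, 17, 23, 28], 2, 0x27cc231002108400680000000), ([3, 9, 15, 17, 23, 28, 35], 2, 0x103d1f08020085e1780000000)],
  [[0x33840, 0, 0x3bde0, 0, 0x2c100, 0x2b900], [0, 0x22659a, 0x3380e, 0x31901, 0x17000, 0x400000], [0, 0, 0x3c180, 0x2f903, 0xbd00, 0x27900], [0, 0, 0, 0x1c93, 0x22a100, 0x2a100], [0, 0, 0, 0, 0x3c100, 0x20000], [0, 0, 0, 0, 0, 0x2f900]]⟩

end Cfsg.Agent.L34C
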