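import Cfsg.Agent.Mult.Slices
import Cfsg.Agent.L34C.Mul2D

set_option autoImplicit false
set_option Elab.async false
set_option maxRecDepth 100000
set_option linter.all false

namespace Cfsg.Agent.L34C
open Cfsg.Agent.CGT

open Cfsg.Agent.Mult

set_option Elab.async false
theorem u2_all : allB u2_D u2_c [.assoc 4 4 4, .assoc 0x40 0x40 0x40, .assoc 0x400 0x10 0x10, .assoc 0x100 0x100 4, .assoc 0x100 0x100 0x40, .assoc 0x100 4 4, .assoc 4 1 1, .assoc 0x10 0x10 4, .assoc 0x40 1 1, .assoc 0x40 0x40 1, .assoc 0x40 4 4, .assoc 4 4 1, .assoc 0x10 4 1, .assoc 0x40 0x10 0x10, .assoc 0x40 0x10 1, .fus 6 [1, 1] [], .fus 6 [0, 0] [], .fus 6 [2, 2] [], .fus 7 [4, 4] [], .fus 7 [5, 5] [], .fus 7 [3, 3] []] 5 m_ts u2_ds [2, 5, 0, 1] [(6, [0x40, 1]), (0, [0x400, 0x100, 0x50, 0x44])] = true := by decide +kernel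

end Cfsg.Agent.L34C
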