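import Cfsg.Agent.Mult.Slices
import Cfsg.Agent.L34C.Tabs

set_option autoImplicit false
set_option Elab.async false
set_option maxRecDepth 100000
set_option linter.all false

namespace Cfsg.Agent.L34C
open Cfsg.Agent.CGT

open Cfsg.Agent.Mult

noncomputable def u3_D : PC := ⟨3, 2, 2, 22,
  [[0, 4], [0, 0]],
  [0, 0],
  [(2, 1, 9), (2, 4, 0xa)], 5, 0x10001⟩
noncomputable def u3_ds : List (List ℕ) := [[9, 0, 8, 4, 0, 2, 6], [6, 0, 4, 9], [6, 9, 4, 2, 0, 6, 4]]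
noncomputable def u3_c : Mult.Cert := ⟨17, 18, [[], []],
  [([1], 1, 0x288)],
  [[0x18, 2], [0, 0x12]]⟩

end Cfsg.Agent.L34C
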