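import Cfsg.Agent.Mult.Slices
import Cfsg.Agent.L34C.Mul3D

set_option autoImplicit false
set_option Elab.async false
set_option maxRecDepth 100000
set_option linter.all false

namespace Cfsg.Agent.L34C
open Cfsg.Agent.CGT

open Cfsg.Agent.Mult

set_option Elab.async false
theorem u3_all : allB u3_D u3_c [.assoc 8 4 1, .fus 2 [0, 0, 0] [], .fus 2 [1, 1, 1] []] 5 m_ts u3_ds [2, 5, 0, 1] [(2, [4]), (0, [9])] = true := by decide +kernel

end Cfsg.Agent.L34C
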