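import Cfsg.Agent.Mult.Slices
import Cfsg.Agent.L34C.Tabs
import Cfsg.Agent.L34C.PresR

set_option autoImplicit false
set_option Elab.async false
set_option maxRecDepth 100000
set_option linter.all false

namespace Cfsg.Agent.L34C
open Cfsg.Agent.CGT

open Cfsg.Agent.Mult

noncomputable def mulc3_C : List (ℕ × ℕ) := [(0xac0e, 0x1842d0),
  (0xc, 0x22000),
  (0x90440, 0x25100),
  (0x23200, 0xc440),
  (0x9, 0x30)]
noncomputable def mulc3_U : ℕ := Nat.sub (Nat.pow 2 21) 1
noncomputable def mulc3_a : List ℕ := [1, 0, 0, 0, 0, 0, 0, 0, 0, 0, 0, 0, 0, 0, 0, 1]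

end Cfsg.Agent.L34C
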