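import Cfsg.Agent.Mult.Slices
import Cfsg.Agent.L34C.PresR

set_option autoImplicit false
set_option Elab.async false
set_option maxRecDepth 100000
set_option linter.all false

namespace Cfsg.Agent.L34C
open Cfsg.Agent.CGT

open Cfsg.Agent.Mult

noncomputable def mulc4a_n0 : Net := Net.cons 32 0x8ce99820 <|
  Net.cons 16 0x5a7000001230 <|
  Net.cons 8 0x4c00d000100024 <|
  Net.cons 4 0x800000800020204 <|
  Net.cons 2 0x220200020020 <|
  Net.cons 1 0x4011110101141015 <|
  Net.cons 2 0x200222200020320 <|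
  Net.cons 4 0x80f0408000a0204 <|
  Net.cons 8 0x5c00d000000024 <|
  Net.cons 16 0x5a7400005230 <|
  Net.cons 32 0x8ceb8830 <|
  Net.nil
noncomputable def mulc4a_n1 : Net := Net.cons 32 0x14ce8244 <|
  Net.cons 16 0x644800004080 <|
  Net.cons 8 0x38004200100014 <|
  Net.cons 4 0x40808000c000804 <|
  Net.cons 2 0x2000000220000000 <|
  Net.cons 1 0x4410401414001400 <|
  Net.cons 2 0x2002030220220010 <|
  Net.cons 4 0x40c08080e040806 <|
  Net.cons 8 0x3800420010001c <|
  Net.cons 16 0x644900004180 <|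
  Net.cons 32 0x14ce8244 <|
  Net.nil
noncomputable def mulc4a_n2 : Net := Net.cons 32 0xc3ec1188 <|
  Net.cons 16 0xec8600006810 <|
  Net.cons 8 0xda005800600020 <|
  Net.cons 4 0x804000208080402 <|
  Net.cons 2 0x2220022020002000 <|
  Net.cons 1 0x4140014110044050 <|
  Net.cons 2 0x1121023120102031 <|
  Net.cons 4 0x70c0005080a0d02 <|
  Net.cons 8 0xda00d800600020 <|
  Net.cons 16 0xee8600006818 <|
  Net.cons 32 0xc3ec1188 <|
  Net.nil
noncomputable def mulc4a_n3 : Net := Net.cons 32 0xe2aa0020 <|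
  Net.cons 16 0xa0ac00002c60 <|
  Net.cons 8 0xc4003000300016 <|
  Net.cons 4 0x808000c040c00 <|
  Net.cons 2 0x200020000202000 <|
  Net.cons 1 0x440015040401445 <|
  Net.cons 2 0x2200023320023103 <|
  Net.cons 4 0xb0e000d0e0100 <|
  Net.cons 8 0xc40030001c0016 <|
  Net.cons 16 0xa0ac00003c60 <|
  Net.cons 32 0xe2aa0020 <|
  Net.nil
noncomputable def mulc4a_n4 : Net := Net.cons 32 0x7b36db9c <|
  Net.cons 16 0x745c0000d8ba <|
  Net.cons 8 0xc0032000000d8 <|
  Net.cons 4 0xc040e0808000404 <|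
  Net.cons 2 0x2002202200000220 <|
  Net.cons 1 0x4101151440441141 <|
  Net.cons 2 0x3021110030300 <|
  Net.cons 4 0xa030709080c0406 <|
  Net.cons 8 0x540038004c00fc <|
  Net.cons 16 0x56500005808 <|
  Net.cons 32 0x7b125f2b <|
  Net.nil
noncomputable def mulc4a_ns : List Net := [mulc4a_n0, mulc4a_n1, mulc4a_n2, mulc4a_n3, mulc4a_n4]
theorem mulc4a_v : validAll (2 ^ 6) mulc4a_ns = true := by decide +kernel
noncomputable def mulc4a_C : List (ℕ × ℕ) := [(0x20881a00a00, 0x21ab001ba02000),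
  (0x2a053004000000, 0x12951440822011),
  (0x85510208088000, 0x25893244049620),
  (0x1521c3b91e7c20, 0xd89f2005178a0),
  (0x4894324444c000, 0x7186650460020)]
noncomputable def mulc4a_U : ℕ := Nat.sub (Nat.pow 2 56) 1
noncomputable def mulc4a_a : List ℕ := [0, 0, 0, 0, 0, 1, 0, 0, 2, 0, 0, 0, 0, 3, 0, 2]

end Cfsg.Agent.L34C
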