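import Cfsg.Agent.Mult.Slices
import Cfsg.Agent.L34C.PresR

set_option autoImplicit false
set_option Elab.async false
set_option maxRecDepth 100000
set_option linter.all false

namespace Cfsg.Agent.L34C
open Cfsg.Agent.CGT

open Cfsg.Agent.Mult

noncomputable def mulc4b_n0 : Net := Net.cons 32 0x624f2020 <|
  Net.cons 16 0x4a82000008a0 <|
  Net.cons 8 0x680028008c0070 <|
  Net.cons 4 0x802020c060004 <|
  Net.cons 2 0x22002022000 <|
  Net.cons 1 0x5114101144005 <|
  Net.cons 2 0x230022012132220 <|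
  Net.cons 4 0x806020c090104 <|
  Net.cons 8 0x6800a8008c0074 <|
  Net.cons 16 0x4a82000008a0 <|
  Net.cons 32 0x624f2020 <|
  Net.nil
noncomputable def mulc4b_n1 : Net := Net.cons 32 0x6004a42 <|
  Net.cons 16 0x908000002120 <|
  Net.cons 8 0x40094001a0018 <|
  Net.cons 4 0xc0e000208040402 <|
  Net.cons 2 0x20002000002000 <|
  Net.cons 1 0x40004151504010 <|
  Net.cons 2 0x1223222000312103 <|
  Net.cons 4 0xc0e050208040c02 <|
  Net.cons 8 0x40094001a0018 <|
  Net.cons 16 0x908800002120 <|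
  Net.cons 32 0x6004a42 <|
  Net.nil
noncomputable def mulc4b_n2 : Net := Net.cons 32 0xa4209682 <|
  Net.cons 16 0x110000009b4 <|
  Net.cons 8 0x80005800280030 <|
  Net.cons 4 0x20a0800080c0006 <|
  Net.cons 2 0x2000000002 <|
  Net.cons 1 0x115504401400051 <|
  Net.cons 2 0x3320230023102 <|
  Net.cons 4 0x20a080f080d0506 <|
  Net.cons 8 0x80005800280030 <|
  Net.cons 16 0x534000009b4 <|
  Net.cons 32 0xa4209682 <|
  Net.nil
noncomputable def mulc4b_n3 : Net := Net.cons 32 0x80780860 <|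
  Net.cons 16 0x61400000a48 <|
  Net.cons 8 0x88008800700014 <|
  Net.cons 4 0xc0a080408000802 <|
  Net.cons 2 0x220202020220 <|
  Net.cons 1 0x4015415144010144 <|
  Net.cons 2 0x203220202122110 <|
  Net.cons 4 0xc0a08040802090f <|
  Net.cons 8 0x88008800700083 <|
  Net.cons 16 0x65400000a68 <|
  Net.cons 32 0x80780860 <|
  Net.nil
noncomputable def mulc4b_n4 : Net := Net.cons 32 0xb00211ae <|
  Net.cons 16 0x8fde00009196 <|
  Net.cons 8 0x2800d0001c0084 <|
  Net.cons 4 0xc060000080c0c08 <|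
  Net.cons 2 0x2202 <|
  Net.cons 1 0x5010001405404154 <|
  Net.cons 2 0x1223200201132302 <|
  Net.cons 4 0x706000704020409 <|
  Net.cons 8 0x900050001a00ce <|
  Net.cons 16 0x8f9000009791 <|
  Net.cons 32 0xb02c8209 <|
  Net.nil
noncomputable def mulc4b_ns : List Net := [mulc4b_n0, mulc4b_n1, mulc4b_n2, mulc4b_n3, mulc4b_n4]
theorem mulc4b_v : validAll (2 ^ 6) mulc4b_ns = true := by decide +kernel
noncomputable def mulc4b_C : List (ℕ × ℕ) := [(0x38411e00419130, 0xf563fceb207402),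
  (0x3696e18e430b90, 0x447c5ef0128be4),
  (0xea82100840a240, 0x1b5774484e5d98),
  (0xce83902c022200, 0xc0f8dc00b26220),
  (0x314809e4033b30, 0x512808e9a89d10)]
noncomputable def mulc4b_U : ℕ := Nat.sub (Nat.pow 2 56) 1
noncomputable def mulc4b_a : List ℕ := [2, 2, 2, 0, 1, 1, 0, 0, 0, 0, 0, 0, 0, 1, 0, 2]

end Cfsg.Agent.L34C
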