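import Cfsg.Agent.Mult.Slices
import Cfsg.Agent.L34C.Mulc4bD

set_option autoImplicit false
set_option Elab.async false
set_option maxRecDepth 100000
set_option linter.all false

namespace Cfsg.Agent.L34C
open Cfsg.Agent.CGT

open Cfsg.Agent.Mult

set_option Elab.async false
theorem mulc4b_p0 : holdsB 6 mulc4b_ns (takeL 16 (dropL 0 qRR)) = true := by decide +kernel
theorem mulc4b_m0 : monB 4 mulc4b_ns mulc4b_C mulc4b_U qRR mulc4b_a 0 16 = true := by decide +kernel
theorem mulc4b_i : invB mulc4b_ns mulc4b_U qRR mulc4b_a 16 = true := by decide +kernel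

end Cfsg.Agent.L34C
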