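import Cfsg.Agent.Mult.Slices
import Cfsg.Agent.L34C.Mulc4bT0

set_option autoImplicit false
set_option Elab.async false
set_option maxRecDepth 100000
set_option linter.all false

namespace Cfsg.Agent.L34C
open Cfsg.Agent.CGT

open Cfsg.Agent.Mult

theorem mulc4b_p : Holds (lp mulc4b_ns) qRR :=
  (forall_dropL (a := 0) (m := 16) (holdsB_sound mulc4b_v mulc4b_p0) (forall_dropL_end (l := qRR) (a := 16) (by decide +kernel)))
theorem mulc4b_proj : Proj (yM 4 mulc4b_ns mulc4b_C) (zM 4 mulc4b_U) 4 qRR mulc4b_a :=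
  have hq : 4 = 2 ∨ 4 = 3 ∨ 4 = 4 := by decide
  proj_mono hq mulc4b_v mulc4b_p (MonR.zero.step hq mulc4b_v mulc4b_m0) mulc4b_i

end Cfsg.Agent.L34C
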